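import Cfsg.Agent.MulX.Part
import Cfsg.Agent.CosetEnum.MU43.QP0
import Cfsg.Agent.CosetEnum.MU43.QP1
import Cfsg.Agent.CosetEnum.MU43.QP2
import Cfsg.Agent.CosetEnum.Step
import Cfsg.Agent.CosetEnum.MU43.LP0
import Cfsg.Agent.CosetEnum.MU43.GP0

/-! Certificates of coset enumerations and tables (generated, owner: helper28). -/

set_option autoImplicit false
set_option maxRecDepth 1000000

namespace Cfsg.Agent.CosetEnum.MU43Q

theorem st : staticOK 12 iv (RL.map expand) subs P L = true := by decide +kernel

theorem seg : SegQ P L P.m :=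
  (((SegQ.nil).snoc part0).snoc part1).snoc part2

theorem tgt : tgtB P us = true := by decide +kernel

theorem cert : PCert 12 iv RL subs us := fun g H hl hrels hsubs =>
  mem_of_part g H 12 iv hl (RL.map expand) subs hrels hsubs P L rfl st seg (by decide) tgt

end Cfsg.Agent.CosetEnum.MU43Q
namespace Cfsg.Agent.CosetEnum.MU43L

theorem st : staticOK 10 iv (RL.map expand) subs P L = true := by decide +kernel

theorem seg : Seg P L P.m 112 :=
  (Seg.nil).snoc part0

theorem cert : Cert 10 iv RL subs 112 := fun g H hl hrels hsubs =>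
  upper g H 10 iv hl (RL.map expand) subs hrels hsubs P L rfl st seg

end Cfsg.Agent.CosetEnum.MU43L
namespace Cfsg.Agent.CosetEnum.MU43G

theorem st : staticOK 12 iv (RL.map expand) subs P L = true := by decide +kernel

theorem seg : Seg P L P.m 486 :=
  (Seg.nil).snoc part0

theorem cert : Cert 12 iv RL subs 486 := fun g H hl hrels hsubs =>
  upper g H 12 iv hl (RL.map expand) subs hrels hsubs P L rfl st seg

end Cfsg.Agent.CosetEnum.MU43G
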