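import Cfsg.Agent.CosetEnum.Level
import Cfsg.Agent.CosetEnum.MU43.T4R0
import Cfsg.Agent.CosetEnum.MU43.T4R1
import Cfsg.Agent.CosetEnum.MU43.T4R2
import Cfsg.Agent.CosetEnum.MU43.T4R3
import Cfsg.Agent.CosetEnum.MU43.T3aR0
import Cfsg.Agent.CosetEnum.MU43.T3bR0

/-! Certificates of coset enumerations and tables (generated, owner: helper28). -/

set_option autoImplicit false
set_option maxRecDepth 1000000

namespace Cfsg.Agent.CosetEnum.MU43T4

theorem st : letsB 12 iv lets RL = true := by decide +kernel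

theorem tabOK : TabOK P 12 iv lets RL := ⟨st, (((Cov.of r0 rfl).trans (Cov.of r1 rfl)).trans (Cov.of r2 rfl)).trans (Cov.of r3 rfl)⟩

theorem covO : Cov (orbC P lets [] 0 P.m) 0 P.m := (((Cov.of o0 rfl).trans (Cov.of o1 rfl)).trans (Cov.of o2 rfl)).trans (Cov.of o3 rfl)

end Cfsg.Agent.CosetEnum.MU43T4
namespace Cfsg.Agent.CosetEnum.MU43T3a

theorem st : letsB 12 iv lets RL = true := by decide +kernel

theorem tabOK : TabOK P 12 iv lets RL := ⟨st, Cov.of r0 rfl⟩

theorem covO : Cov (orbC P lets [] 0 P.m) 0 P.m := Cov.of o0 rfl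

end Cfsg.Agent.CosetEnum.MU43T3a
namespace Cfsg.Agent.CosetEnum.MU43T3b

theorem st : letsB 12 iv lets RL = true := by decide +kernel

theorem tabOK : TabOK P 12 iv lets RL := ⟨st, Cov.of r0 rfl⟩

theorem covO : Cov (orbC P lets [] 0 P.m) 0 P.m := Cov.of o0 rfl

end Cfsg.Agent.CosetEnum.MU43T3b
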